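import Mathlib
import Cfsg.Agent.Lib.Helper55.OOG.Defs

/-!
# OOG (S2413): package [WEYL] — `ρ_{e_i,t} ρ_{f_i,t} ρ_{e_i,t}` is a Weyl element
-/

set_option autoImplicit false
open scoped Matrix

namespace Cfsg.Agent.Lib.Helper1.OOG

open Cfsg.Agent.Lib.Helper55.OOG

universe u

/-- [WEYL] -/
theorem pkgWeyl : PkgWeyl.{u} := by
  intro m F _ i σ τ hσ hτ
  have s1 : mat σ *ᵥ (E i : Vec m F) = E i := by
    rw [hσ (E i), B_E_E, B_E_T0]
    simp
  have s2 : mat σ *ᵥ (T0 : Vec m F) = T0 - (2 : F) • E i := by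
    rw [hσ T0, B_T0_E, B_T0_T0, Q_T0]
    module
  have s3 : mat σ *ᵥ (Fv i : Vec m F) = Fv i + T0 - E i := by
    rw [hσ (Fv i), B_Fv_E, B_Fv_T0, Q_T0, if_pos rfl]
    module
  have t1 : mat τ *ᵥ (Fv i : Vec m F) = Fv i := by
    rw [hτ (Fv i), B_Fv_Fv, B_Fv_T0]
    simp
  have t2 : mat τ *ᵥ (T0 : Vec m F) = T0 - (2 : F) • Fv i := by
    rw [hτ T0, B_T0_Fv, B_T0_T0, Q_T0]
    module
  have t3 : mat τ *ᵥ (E i : Vec m F) = E i + T0 - Fv i := by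
    rw [hτ (E i), B_E_Fv, B_E_T0, Q_T0, if_pos rfl]
    module
  have sE : ∀ j : Fin m, j ≠ i → mat σ *ᵥ (E j : Vec m F) = E j := by
    intro j hj
    rw [hσ (E j), B_E_E, B_E_T0]
    simp
  have sF : ∀ j : Fin m, j ≠ i → mat σ *ᵥ (Fv j : Vec m F) = Fv j := by
    intro j hj
    rw [hσ (Fv j), B_Fv_E, B_Fv_T0, if_neg hj]
    simp
  have tE : ∀ j : Fin m, j ≠ i → mat τ *ᵥ (E j : Vec m F) = E j := by
    intro j hj
    rw [hτ (E j), B_E_Fv, B_E_T0, if_neg hj]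
    simp
  have tF : ∀ j : Fin m, j ≠ i → mat τ *ᵥ (Fv j : Vec m F) = Fv j := by
    intro j hj
    rw [hτ (Fv j), B_Fv_Fv, B_Fv_T0]
    simp
  refine ⟨?_, ?_, ?_, ?_⟩
  · rw [mul_act, mul_act]
    simp only [Matrix.mulVec_add, Matrix.mulVec_sub, Matrix.mulVec_smul, s1, s2, s3, t1, t2, t3]
    module
  · rw [mul_act, mul_act]
    simp only [Matrix.mulVec_add, Matrix.mulVec_sub, Matrix.mulVec_smul, s1, s2, s3, t1, t2, t3]
    module
  · rw [mul_act, mul_act]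
    simp only [Matrix.mulVec_add, Matrix.mulVec_sub, Matrix.mulVec_smul, s1, s2, s3, t1, t2, t3]
    module
  · intro j hj
    constructor
    · rw [mul_act, mul_act, sE j hj, tE j hj, sE j hj]
    · rw [mul_act, mul_act, sF j hj, tF j hj, sF j hj]

end Cfsg.Agent.Lib.Helper1.OOG
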